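/- KP tower, slot CJ: the arithmetic inequalities CJ4 and CJ3. -/
import Cfsg.Agent.H2.KpSpec

set_option autoImplicit false

namespace H92.KpCJ
open H2.Kp

/-- The shape of all the inequalities. -/
def P (A B C D K e h s : ℕ) : Prop := A ^ s * s ^ e * B ^ h ≤ K * h ^ e * C ^ h * D ^ s

theorem step {A B C D K e h s : ℕ} (s0 k d : ℕ) (h0 : 0 < s0) (hs : s0 ≤ s)
    (hk : A ^ k * (s0 + k) ^ e * B ^ d ≤ C ^ d * D ^ k * s0 ^ e) (H : P A B C D K e h s) :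
    P A B C D K e (h + d) (s + k) := by
  unfold P at *
  have h1 : (s + k) * s0 ≤ (s0 + k) * s := by nlinarith
  have h2 : (s + k) ^ e * s0 ^ e ≤ (s0 + k) ^ e * s ^ e := by
    rw [← mul_pow, ← mul_pow]; exact Nat.pow_le_pow_left h1 e
  have h3 : h ^ e ≤ (h + d) ^ e := Nat.pow_le_pow_left (by omega) e
  refine Nat.le_of_mul_le_mul_right ?_ (pow_pos h0 e)
  calc A ^ (s + k) * (s + k) ^ e * B ^ (h + d) * s0 ^ e
      = A ^ s * B ^ h * (A ^ k * B ^ d) * ((s + k) ^ e * s0 ^ e) := by ring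
    _ ≤ A ^ s * B ^ h * (A ^ k * B ^ d) * ((s0 + k) ^ e * s ^ e) := Nat.mul_le_mul_left _ h2
    _ = (A ^ s * s ^ e * B ^ h) * (A ^ k * (s0 + k) ^ e * B ^ d) := by ring
    _ ≤ (K * h ^ e * C ^ h * D ^ s) * (C ^ d * D ^ k * s0 ^ e) := Nat.mul_le_mul H hk
    _ = K * h ^ e * C ^ (h + d) * D ^ (s + k) * s0 ^ e := by ring
    _ ≤ K * (h + d) ^ e * C ^ (h + d) * D ^ (s + k) * s0 ^ e := by gcongr

theorem gen {A B C D K e : ℕ} (h0 s0 k : ℕ) (hs0 : 0 < s0) (base : P A B C D K e h0 s0)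
    (h1 : A ^ k * (s0 + k) ^ e * B ^ 1 ≤ C ^ 1 * D ^ k * s0 ^ e)
    (h2 : A ^ 1 * (s0 + 1) ^ e * B ^ 0 ≤ C ^ 0 * D ^ 1 * s0 ^ e) (j i : ℕ) :
    P A B C D K e (h0 + j) (s0 + k * j + i) := by
  induction i with
  | zero =>
    induction j with
    | zero => simpa using base
    | succ j ih =>
      have := step s0 k 1 hs0 (by omega) h1 ih
      have e1 : s0 + k * (j + 1) + 0 = s0 + k * j + 0 + k := by ring
      rw [e1, ← add_assoc]; exact this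
  | succ i ih => exact step (s := s0 + k * j + i) s0 1 0 hs0 (by omega) h2 ih

theorem g4_le (c : ℕ) (hc : c ≠ 2) : g4 c ≤ 9 ^ (c - 1) := by
  unfold g4
  rw [if_neg hc]
  split_ifs with h
  · subst h; norm_num
  · exact le_rfl

theorem b4 (h s : ℕ) (h5 : 5 ≤ h) (hs : 76 ≤ s) (hq : 4 * (h - 1) ^ 2 ≤ s + 1) :
    P 4096 531441 4096 6561 531441 9 h s := by
  obtain ⟨j, rfl⟩ := Nat.exists_eq_add_of_le h5
  have : 76 + 23 * j ≤ s := by
    rcases j with _ | j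
    · omega
    · have e : 5 + (j + 1) - 1 = j + 5 := by omega
      rw [e] at hq; nlinarith
  obtain ⟨i, rfl⟩ := Nat.exists_eq_add_of_le this
  exact gen 5 76 23 (by norm_num) (by unfold P; norm_num) (by norm_num) (by norm_num) j i

theorem c4 (h s c : ℕ) (h5 : 5 ≤ h) (hs : 76 ≤ s) (hq : 4 * (h - 1) ^ 2 ≤ s + 1) (hc : 3 * c ≤ s) :
    g4 c ^ 2 * 16 ^ s * s ^ 3 * 81 ^ h ≤ h ^ 3 * 16 ^ h * 81 ^ s := by
  have hg : (g4 c ^ 2) ^ 3 * 531441 ≤ 81 ^ s := by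
    by_cases h2 : c = 2
    · subst h2
      calc (g4 2 ^ 2) ^ 3 * 531441 ≤ 81 ^ 76 := by unfold g4; norm_num
        _ ≤ 81 ^ s := Nat.pow_le_pow_right (by norm_num) hs
    · have h1 := g4_le c h2
      calc (g4 c ^ 2) ^ 3 * 531441 ≤ ((9 ^ (c - 1)) ^ 2) ^ 3 * 531441 := by gcongr
        _ = 81 ^ (3 * (c - 1) + 3) := by
          rw [show (81 : ℕ) = 9 ^ 2 by norm_num, show (531441 : ℕ) = 9 ^ 6 by norm_num]
          rw [← pow_mul, ← pow_mul, ← pow_mul, ← pow_add]; congr 1; ring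
        _ ≤ 81 ^ s := Nat.pow_le_pow_right (by norm_num) (by omega)
  have hb := b4 h s h5 hs hq
  unfold P at hb
  have e1 : (16 ^ s : ℕ) ^ 3 = 4096 ^ s := by rw [← pow_mul, mul_comm, pow_mul]; norm_num
  have e2 : (16 ^ h : ℕ) ^ 3 = 4096 ^ h := by rw [← pow_mul, mul_comm, pow_mul]; norm_num
  have e3 : (81 ^ h : ℕ) ^ 3 = 531441 ^ h := by rw [← pow_mul, mul_comm, pow_mul]; norm_num
  have e4 : (81 ^ s : ℕ) ^ 3 = 81 ^ s * 6561 ^ s := by
    rw [← mul_pow, ← pow_mul, mul_comm, pow_mul]; norm_num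
  rw [← Nat.pow_le_pow_iff_left (n := 3) (by norm_num)]
  refine Nat.le_of_mul_le_mul_right ?_ (show 0 < 531441 by norm_num)
  simp only [mul_pow]
  rw [e1, e2, e3, e4]
  calc (g4 c ^ 2) ^ 3 * 4096 ^ s * (s ^ 3) ^ 3 * 531441 ^ h * 531441
      = ((g4 c ^ 2) ^ 3 * 531441) * (4096 ^ s * s ^ 9 * 531441 ^ h) := by ring
    _ ≤ 81 ^ s * (531441 * h ^ 9 * 4096 ^ h * 6561 ^ s) := Nat.mul_le_mul hg hb
    _ = _ := by ring

theorem h_le (h s : ℕ) (h5 : 5 ≤ h) (hq : 3 * (h - 1) ^ 2 ≤ s + 1) : h ≤ s := by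
  obtain ⟨j, rfl⟩ := Nat.exists_eq_add_of_le h5
  have e : 5 + j - 1 = j + 4 := by omega
  rw [e] at hq; nlinarith

/-- From the multiplied form to the form of the spec. -/
theorem fin2 {X h s : ℕ} (hs : h ≤ s) (H : X * 81 ^ h ≤ h ^ 3 * 16 ^ h * 81 ^ s) : X ≤ Cn 2 h s := by
  obtain ⟨d, rfl⟩ := Nat.exists_eq_add_of_le hs
  unfold Cn
  rw [Nat.add_sub_cancel_left]
  refine Nat.le_of_mul_le_mul_right (H.trans (le_of_eq ?_)) (pow_pos (show 0 < 81 by norm_num) h)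
  norm_num [pow_add]; ring

theorem fin1 {X h s : ℕ} (hs : h ≤ s) (H : X * 9 ^ h ≤ h ^ 3 * 9 ^ s) : X ≤ Cn 1 h s := by
  obtain ⟨d, rfl⟩ := Nat.exists_eq_add_of_le hs
  unfold Cn
  rw [Nat.add_sub_cancel_left]
  refine Nat.le_of_mul_le_mul_right (H.trans (le_of_eq ?_)) (pow_pos (show 0 < 9 by norm_num) h)
  norm_num [pow_add]; ring

theorem jobCJ4 : CJ4 := by
  intro w h s c hw h5 hs hq hc
  have hh : h ≤ s := h_le h s h5 (by nlinarith)
  have H := c4 h s c h5 hs hq hc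
  rcases hw with rfl | rfl
  · obtain ⟨d, rfl⟩ := Nat.exists_eq_add_of_le hh
    unfold Cn
    rw [Nat.add_sub_cancel_left]
    have h1 : (81 : ℕ) ^ d ≤ 16 ^ d * 9 ^ d := by
      rw [← mul_pow]; exact Nat.pow_le_pow_left (by norm_num) d
    refine Nat.le_of_mul_le_mul_right ?_
      (show 0 < 16 ^ (h + d) * 81 ^ h by positivity)
    calc g4 c ^ 2 * (1 ^ 4) ^ (h + d) * (h + d) ^ 3 * (16 ^ (h + d) * 81 ^ h)
        = g4 c ^ 2 * 16 ^ (h + d) * (h + d) ^ 3 * 81 ^ h := by simp only [one_pow]; ring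
      _ ≤ h ^ 3 * 16 ^ h * 81 ^ (h + d) := H
      _ = h ^ 3 * 16 ^ h * 81 ^ h * 81 ^ d := by ring
      _ ≤ h ^ 3 * 16 ^ h * 81 ^ h * (16 ^ d * 9 ^ d) := Nat.mul_le_mul_left _ h1
      _ = _ := by simp only [one_pow, pow_one]; ring
  · exact fin2 hh (by simpa using H)

theorem lin3 (h c : ℕ) (h5 : 5 ≤ h) (hc : 29 ≤ c) (hq : 3 * (h - 1) ^ 2 ≤ 2 * c + 1) :
    ∃ j i, h = 5 + j ∧ c = 29 + 8 * j + i := by
  obtain ⟨j, rfl⟩ := Nat.exists_eq_add_of_le h5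
  have : 29 + 8 * j ≤ c := by
    rcases j with _ | j
    · omega
    · have e : 5 + (j + 1) - 1 = j + 5 := by omega
      rw [e] at hq; nlinarith
  obtain ⟨i, rfl⟩ := Nat.exists_eq_add_of_le this
  exact ⟨j, i, rfl, rfl⟩

theorem mix (a b m d u : ℕ) (hd : d ≤ u) (h1 : a * b ≤ m ^ 2) (h2 : b ≤ m) :
    a ^ d * b ^ u ≤ m ^ (d + u) := by
  obtain ⟨k, rfl⟩ := Nat.exists_eq_add_of_le hd
  calc a ^ d * b ^ (d + k) = (a * b) ^ d * b ^ k := by rw [mul_pow]; ring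
    _ ≤ (m ^ 2) ^ d * m ^ k := by gcongr
    _ = _ := by ring

theorem jobCJ3 : CJ3 := by
  intro w h c u hw h5 hc hq hu hcu
  have hh : h ≤ 2 * c := h_le h (2 * c) h5 hq
  have hg : g4 c * 9 ≤ 9 ^ c := by
    have := g4_le c (by omega)
    calc g4 c * 9 ≤ 9 ^ (c - 1) * 9 := by gcongr
      _ = 9 ^ c := by rw [← pow_succ]; congr 1; omega
  have ec : c - u + u = c := by omega
  obtain ⟨j, i, ej, ei⟩ := lin3 h c h5 hc hq
  rcases hw with rfl | rfl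
  · have hb : P 36 9 1 81 1 3 h c := by
      rw [ej, ei]
      exact gen 5 29 8 (by norm_num) (by unfold P; norm_num) (by norm_num) (by norm_num) j i
    unfold P at hb
    have hm := mix 16 1 4 (c - u) u (by omega) (by norm_num) (by norm_num)
    rw [ec] at hm
    refine fin1 hh (Nat.le_of_mul_le_mul_right ?_ (show 0 < 9 by norm_num))
    have e1 : g4 (1 * 2) = 16 := by unfold g4; norm_num
    have e2 : (36 : ℕ) ^ c = 9 ^ c * 4 ^ c := by rw [← mul_pow]; norm_num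
    have e3 : (9 : ℕ) ^ (2 * c) = 81 ^ c := by rw [pow_mul]; norm_num
    rw [e1, e3]
    calc g4 c * 16 ^ (c - u) * (1 ^ 4) ^ (u * 2) * (2 * c) ^ 3 * 9 ^ h * 9
        = (g4 c * 9) * (16 ^ (c - u) * 1 ^ u) * (c ^ 3 * 9 ^ h) * 8 := by simp only [one_pow]; ring
      _ ≤ 9 ^ c * 4 ^ c * (c ^ 3 * 9 ^ h) * 8 := by gcongr
      _ = (36 ^ c * c ^ 3 * 9 ^ h) * 8 := by rw [e2]; ring
      _ ≤ (1 * h ^ 3 * 1 ^ h * 81 ^ c) * 9 := Nat.mul_le_mul hb (by norm_num)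
      _ = _ := by simp only [one_pow]; ring
  · have hb : P 3600 81 16 6561 1 3 h c := by
      rw [ej, ei]
      exact gen 5 29 8 (by norm_num) (by unfold P; norm_num) (by norm_num) (by norm_num) j i
    unfold P at hb
    have hm := mix 625 256 400 (c - u) u (by omega) (by norm_num) (by norm_num)
    rw [ec] at hm
    refine fin2 hh (Nat.le_of_mul_le_mul_right ?_ (show 0 < 9 by norm_num))
    have e1 : g4 (2 * 2) = 625 := by unfold g4; norm_num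
    have e2 : (3600 : ℕ) ^ c = 9 ^ c * 400 ^ c := by rw [← mul_pow]; norm_num
    have e3 : (81 : ℕ) ^ (2 * c) = 6561 ^ c := by rw [pow_mul]; norm_num
    have e4 : ((2 : ℕ) ^ 4) ^ (u * 2) = 256 ^ u := by rw [mul_comm, pow_mul]; norm_num
    rw [e1, e3, e4]
    calc g4 c * 625 ^ (c - u) * 256 ^ u * (2 * c) ^ 3 * 81 ^ h * 9
        = (g4 c * 9) * (625 ^ (c - u) * 256 ^ u) * (c ^ 3 * 81 ^ h) * 8 := by ring
      _ ≤ 9 ^ c * 400 ^ c * (c ^ 3 * 81 ^ h) * 8 := by gcongr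
      _ = (3600 ^ c * c ^ 3 * 81 ^ h) * 8 := by rw [e2]; ring
      _ ≤ (1 * h ^ 3 * 16 ^ h * 6561 ^ c) * 9 := Nat.mul_le_mul hb (by norm_num)
      _ = _ := by ring

end H92.KpCJ
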