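import Cfsg.Agent.H9.Cube

/-! The extension of an extraspecial 2-group by a group preserving its quadratic form. -/

set_option autoImplicit false
set_option linter.unusedSectionVars false

namespace H92.XE

open Matrix

/-- the sign of an element of `ZMod 2` -/
noncomputable def sg (a : ZMod 2) : ℝ := if a = 0 then 1 else -1

theorem z2 (a : ZMod 2) : a = 0 ∨ a = 1 := by revert a; decide

theorem z2_add (a : ZMod 2) : a + a = 0 := by revert a; decide

@[simp] theorem sg_zero : sg 0 = 1 := if_pos rfl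

theorem sg_one : sg 1 = -1 := if_neg one_ne_zero

theorem sg_add (a b : ZMod 2) : sg (a + b) = sg a * sg b := by
  rcases z2 a with rfl | rfl <;> rcases z2 b with rfl | rfl <;> simp [z2_add, sg_one]

theorem sg_sq (a : ZMod 2) : sg a * sg a = 1 := by rw [← sg_add, z2_add, sg_zero]

theorem sg_ne (a : ZMod 2) : sg a ≠ 0 := left_ne_zero_of_mul_eq_one (sg_sq a)

theorem sg_inj {a b : ZMod 2} (h : sg a = sg b) : a = b := by
  rcases z2 a with rfl | rfl <;> rcases z2 b with rfl | rfl <;> simp [sg_one] at h ⊢ <;>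
    norm_num at h

variable {U : Type*} [AddCommGroup U] [Module (ZMod 2) U]

theorem uu (u : U) : u + u = 0 := by
  rw [← two_smul (ZMod 2), show (2 : ZMod 2) = 0 from rfl, zero_smul]

theorem uuv (u v : U) : u + (u + v) = v := by rw [← add_assoc, uu, zero_add]

theorem exists_s [Module.Finite (ZMod 2) U] (γ : U →ₗ[ZMod 2] U →ₗ[ZMod 2] ZMod 2)
    (h : ∀ u, γ u u = 0) : ∃ s : U → ZMod 2, ∀ u v, s (u + v) = s u + s v + γ u v := by
  have hs : ∀ u v, γ u v = γ v u := fun u v => by
    have := h (u + v)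
    simp only [map_add, LinearMap.add_apply, h, zero_add, add_zero] at this
    rw [← add_zero (γ u v), ← this, add_left_comm, z2_add, add_zero]
  let b := Module.finBasis (ZMod 2) U
  let δ : U →ₗ[ZMod 2] U →ₗ[ZMod 2] ZMod 2 := b.constr (ZMod 2) fun i => b.constr (ZMod 2) fun j =>
    if i < j then γ (b i) (b j) else 0
  have hδ : γ = δ + δ.flip := by
    refine LinearMap.ext_basis b b fun i j => ?_
    simp only [δ, LinearMap.add_apply, LinearMap.flip_apply, Module.Basis.constr_basis]
    rcases lt_trichotomy i j with hij | rfl | hij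
    · rw [if_pos hij, if_neg hij.not_gt, add_zero]
    · simp [h]
    · rw [if_neg hij.not_gt, if_pos hij, zero_add, hs]
  refine ⟨fun u => δ u u, fun u v => ?_⟩
  rw [hδ]
  simp only [map_add, LinearMap.add_apply, LinearMap.flip_apply]
  abel

variable [Fintype U] [DecidableEq U] (β : U →ₗ[ZMod 2] U →ₗ[ZMod 2] ZMod 2)

/-- left multiplication in the twisted group algebra -/
noncomputable def E (u : U) : Matrix U U ℝ := of fun x y => if x = u + y then sg (β u y) else 0

theorem mul_E (g : Matrix U U ℝ) (u x y : U) : (g * E β u) x y = sg (β u y) * g x (u + y) := by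
  simp [E, mul_apply, mul_comm]

theorem E_mul (g : Matrix U U ℝ) (u x y : U) :
    (E β u * g) x y = sg (β u (u + x)) * g (u + x) y := by
  rw [mul_apply, Finset.sum_eq_single (u + x)]
  · simp [E, uuv]
  · intro z _ hz
    have : x ≠ u + z := fun h => hz (by rw [h, uuv])
    simp [E, this]
  · simp

theorem E_E (u v : U) : E β u * E β v = sg (β u v) • E β (u + v) := by
  ext x y
  rw [E_mul]
  by_cases h : x = u + v + y
  · subst h
    simp [E, add_assoc, uuv, sg_add, mul_assoc]
  · have : u + x ≠ v + y := fun e => h (by rw [add_assoc, ← e, uuv])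
    simp [E, h, this]

theorem E_zero : E β 0 = 1 := by
  ext x y
  simp [E, one_apply]

theorem star_E (u : U) : star (E β u) = sg (β u u) • E β u := by
  ext x y
  by_cases h : x = u + y
  · subst h
    simp [E, uuv, sg_add]
  · have : y ≠ u + x := fun e => h (by rw [e, uuv])
    simp [E, h, this]

theorem star_E_E (u : U) : star (E β u) * E β u = 1 := by
  rw [star_E, smul_mul, E_E, smul_smul, sg_sq, one_smul, uu, E_zero]

theorem E_star_E (u : U) : E β u * star (E β u) = 1 := mul_eq_one_comm.1 (star_E_E β u)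

theorem E_comm (u v : U) : E β u * E β v = sg (β u v + β v u) • (E β v * E β u) := by
  rw [E_E, E_E, smul_smul, sg_add, mul_assoc, sg_sq, mul_one, add_comm]

theorem E_inj {s t : ZMod 2} {u v : U} (h : sg s • E β u = sg t • E β v) : s = t ∧ u = v := by
  have := congrFun (congrFun h u) 0
  by_cases e : u = v
  · subst e
    exact ⟨sg_inj (by simpa [E] using this), rfl⟩
  · simp [E, e, sg_ne] at this

/-- membership in the twisted group algebra -/
def InA (g : Matrix U U ℝ) : Prop := ∀ v, g * E β.flip v = E β.flip v * g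

variable {β}

theorem InA.mul {g h : Matrix U U ℝ} (hg : InA β g) (hh : InA β h) : InA β (g * h) := fun v => by
  rw [mul_assoc, hh, ← mul_assoc, hg, mul_assoc]

theorem InA.smul {g : Matrix U U ℝ} (hg : InA β g) (c : ℝ) : InA β (c • g) := fun v => by
  rw [smul_mul, Matrix.mul_smul, hg]

theorem InA.star {g : Matrix U U ℝ} (hg : InA β g) : InA β (star g) := fun v => by
  have := congrArg Star.star (hg v)
  rw [star_mul, star_mul, star_E, smul_mul, Matrix.mul_smul] at this
  exact (smul_right_injective _ (sg_ne _) this).symm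

theorem inA_E (u : U) : InA β (E β u) := fun v => by
  ext x y
  rw [mul_E, E_mul]
  by_cases h : x = u + (v + y)
  · subst h
    have : v + (u + (v + y)) = u + y := by rw [add_left_comm, uuv]
    simp only [this]
    simp [E, sg_add, mul_comm, mul_left_comm, mul_assoc]
  · have : v + x ≠ u + y := fun e => h (by rw [add_left_comm, ← e, uuv])
    simp [E, h, this]

theorem InA.entry {g : Matrix U U ℝ} (hg : InA β g) (x v : U) :
    g x v = sg (β (v + x) v) * g (v + x) 0 := by
  have := congrFun (congrFun (hg v) x) 0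
  rw [mul_E, E_mul] at this
  simpa using this

theorem InA.supp {g : Matrix U U ℝ} (hg : InA β g) {u w : U} {s : ZMod 2}
    (h : g * E β u = sg s • (E β u * g)) (hw : g w 0 ≠ 0) : β u w + β w u = s := by
  have := congrFun (congrFun h (u + w)) 0
  rw [mul_E, Matrix.smul_apply, E_mul, add_zero, hg.entry, uuv, map_zero, sg_zero, one_mul, smul_eq_mul,
    ← mul_assoc, ← sg_add] at this
  rw [sg_inj (mul_right_cancel₀ hw this), add_left_comm, z2_add, add_zero]

theorem InA.exists_ne {g : Matrix U U ℝ} (hg : InA β g) (h0 : g ≠ 0) : ∃ w, g w 0 ≠ 0 := by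
  by_contra h
  push Not at h
  exact h0 (by ext x v; rw [hg.entry, h, mul_zero, Matrix.zero_apply])

theorem InA.eq_smul {g : Matrix U U ℝ} (hg : InA β g) {w : U} (h : ∀ x, g x 0 ≠ 0 → x = w) :
    g = g w 0 • E β w := by
  ext x v
  rw [hg.entry]
  by_cases e : x = w + v
  · subst e
    have : v + (w + v) = w := by rw [add_comm w, uuv]
    simp [E, this, mul_comm]
  · have : g (v + x) 0 = 0 := by
      by_contra h1
      exact e (by rw [← h _ h1, add_comm v, add_assoc, uu, add_zero])
    simp [E, e, this]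

theorem sum_sg (hnd : ∀ w, (∀ u, β u w + β w u = 0) → w = 0) {u : U} (hu : u ≠ 0) :
    ∑ w, sg (β w u + β u w) = 0 := by
  obtain ⟨w₀, hw⟩ := not_forall.1 (mt (hnd u) hu)
  have h1 := (z2 _).resolve_left hw
  have := Equiv.sum_comp (Equiv.addLeft w₀) fun w => sg (β w u + β u w)
  simp only [Equiv.coe_addLeft, map_add, LinearMap.add_apply] at this
  have e : ∀ w, sg (β w₀ u + β w u + (β u w₀ + β u w)) = -sg (β w u + β u w) := fun w => by
    rw [add_add_add_comm, h1, sg_add, sg_one, neg_one_mul]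
  simp only [e, Finset.sum_neg_distrib] at this
  linarith

theorem exists_g (hnd : ∀ w, (∀ u, β u w + β w u = 0) → w = 0) (k : U →ₗ[ZMod 2] U)
    (hk : ∀ u, β (k u) (k u) = β u u) :
    ∃ g : Matrix U U ℝ, star g * g = 1 ∧ InA β g ∧
      ∀ u, ∃ s, g * E β u = sg s • (E β (k u) * g) := by
  obtain ⟨s, hs⟩ := exists_s (β.compl₁₂ k k + β) fun u => by simp [hk, z2_add]
  simp only [LinearMap.add_apply, LinearMap.compl₁₂_apply] at hs
  have s0 : s 0 = 0 := by simpa using hs 0 0
  let α : U → Matrix U U ℝ := fun u => sg (s u) • E β (k u)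
  have hα : ∀ u v, α u * α v = sg (β u v) • α (u + v) := fun u v => by
    simp only [α, smul_mul, Matrix.mul_smul, E_E, smul_smul, map_add, hs, ← sg_add]
    congr 2
    generalize β u v = a, s u = b, s v = c, β (k u) (k v) = d
    revert a b c d
    decide
  let G : Matrix U U ℝ → Matrix U U ℝ := fun a => ∑ u, α u * a * star (E β u)
  have hG : ∀ a v, G a * E β v = α v * G a := fun a v => by
    simp only [G, Finset.sum_mul, Finset.mul_sum]
    rw [← Equiv.sum_comp (Equiv.addLeft v)]
    refine Finset.sum_congr rfl fun u _ => ?_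
    have e : star (E β (v + u)) * E β v = sg (β v u) • star (E β u) := by
      have : E β (v + u) = sg (β v u) • (E β v * E β u) := by
        rw [E_E, smul_smul, sg_sq, one_smul]
      rw [this, star_smul, star_mul, smul_mul, mul_assoc, star_E_E, mul_one, star_trivial]
    change α (v + u) * a * star (E β (v + u)) * E β v = _
    rw [mul_assoc, e, ← mul_assoc, ← mul_assoc, hα, smul_mul (sg (β v u)), smul_mul (sg (β v u)),
      Matrix.mul_smul]
  have hA : ∀ w, InA β (G (E β w)) := fun w v => by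
    simp only [G, Finset.sum_mul, Finset.mul_sum]
    exact Finset.sum_congr rfl fun u _ =>
      ((((inA_E _).smul _).mul (inA_E _)).mul (inA_E _).star) v
  obtain ⟨w, hw⟩ : ∃ w, G (E β w) ≠ 0 := by
    by_contra h
    push Not at h
    have e1 : ∑ w, G (E β w) * star (E β w) = 0 := by simp [h]
    have e2 : ∀ u w, α u * E β w * star (E β u) * star (E β w) =
        sg (β w u + β u w) • (α u * star (E β u)) := fun u w => by
      rw [star_E β u, Matrix.mul_smul, Matrix.mul_smul, mul_assoc (α u), E_comm, Matrix.mul_smul,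
        smul_comm, smul_mul, smul_mul, mul_assoc, mul_assoc, E_star_E, mul_one]
    simp only [G, Finset.sum_mul, e2] at e1
    rw [Finset.sum_comm, Finset.sum_eq_single 0] at e1
    · have := congrFun (congrFun e1 0) 0
      simp [α, s0, E_zero] at this
    · intro u _ hu
      rw [← Finset.sum_smul, sum_sg hnd hu, zero_smul]
    · simp
  generalize hg : G (E β w) = g at hw
  have h1 : InA β g := hg ▸ hA w
  have h2 : ∀ v, g * E β v = sg (s v) • (E β (k v) * g) := fun v => by
    rw [← hg, hG, smul_mul]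
  have h3 : ∀ v, star g * g * E β v = sg 0 • (E β v * (star g * g)) := fun v => by
    have := congrArg star (h2 v)
    rw [star_mul, star_smul, star_mul, star_E, star_E, hk, smul_mul, Matrix.mul_smul, smul_comm,
      star_trivial (sg _)] at this
    rw [sg_zero, one_smul, mul_assoc, h2, ← mul_assoc, smul_right_injective _ (sg_ne _) this,
      Matrix.mul_smul, smul_mul, mul_assoc]
  have h4 := (h1.star.mul h1).eq_smul (w := 0) fun x hx =>
    hnd x fun u => (h1.star.mul h1).supp (h3 u) hx
  have h5 : 0 < (star g * g) 0 0 := by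
    obtain ⟨x, hx⟩ := h1.exists_ne hw
    rw [mul_apply]
    exact Finset.sum_pos' (fun y _ => by simpa using mul_self_nonneg (g y 0))
      ⟨x, Finset.mem_univ _, by simpa using hx⟩
  refine ⟨(√((star g * g) 0 0))⁻¹ • g, ?_, h1.smul _, fun u => ⟨s u, ?_⟩⟩
  · rw [star_smul, smul_mul, Matrix.mul_smul, smul_smul, star_trivial (_⁻¹ : ℝ), ← mul_inv,
      Real.mul_self_sqrt h5.le, inv_smul_eq_iff₀ h5.ne', ← E_zero β]
    exact h4
  · rw [smul_mul, h2, Matrix.mul_smul, smul_comm]

omit [Fintype U] [DecidableEq U] in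
/-- the interface of the extension -/
structure Ifc {K : Type*} [Group K] (ρ : Representation (ZMod 2) K U)
    (β : U →ₗ[ZMod 2] U →ₗ[ZMod 2] ZMod 2) {R : Type*} [Group R] (π : R →* K)
    (ε : ZMod 2 → U → R) : Prop where
  mul : ∀ s w t v, ε s w * ε t v = ε (s + t + β w v) (w + v)
  inj : ∀ s w t v, ε s w = ε t v → s = t ∧ w = v
  ker : ∀ a, π a = 1 ↔ ∃ s w, a = ε s w
  conj : ∀ r s w, ∃ t, r * ε s w * r⁻¹ = ε t (ρ (π r) w)
  surj : Function.Surjective π

variable {K : Type*} [Group K] {ρ : Representation (ZMod 2) K U}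

theorem unit_E (s : ZMod 2) (w : U) : sg s • E β w ∈ unitary (Matrix U U ℝ) := by
  have : star (sg s • E β w) * (sg s • E β w) = 1 := by
    rw [star_smul, smul_mul, Matrix.mul_smul, smul_smul, star_trivial (sg s), sg_sq, one_smul,
      star_E_E]
  exact ⟨this, mul_eq_one_comm.1 this⟩

variable (β ρ) in
/-- the extension -/
def RR : Subgroup (unitary (Matrix U U ℝ) × K) where
  carrier := {x | InA β x.1.1 ∧ ∀ u, ∃ s, x.1.1 * E β u = sg s • (E β (ρ x.2 u) * x.1.1)}
  one_mem' := ⟨fun v => by simp, fun u => ⟨0, by simp⟩⟩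
  mul_mem' := by
    rintro ⟨a, k⟩ ⟨b, l⟩ ⟨ha, ha'⟩ ⟨hb, hb'⟩
    refine ⟨ha.mul hb, fun u => ?_⟩
    obtain ⟨t, ht⟩ := hb' u
    obtain ⟨s, hs⟩ := ha' (ρ l u)
    refine ⟨t + s, ?_⟩
    change a.1 * b.1 * _ = _ • (E β (ρ (k * l) u) * (a.1 * b.1))
    dsimp only at hs ht
    rw [mul_assoc, ht, Matrix.mul_smul, ← mul_assoc, hs, smul_mul, smul_smul, sg_add, map_mul,
      mul_assoc]
    rfl
  inv_mem' := by
    rintro ⟨a, k⟩ ⟨ha, ha'⟩
    refine ⟨ha.star, fun u => ?_⟩
    obtain ⟨s, hs⟩ := ha' (ρ k⁻¹ u)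
    refine ⟨s, ?_⟩
    change star a.1 * _ = _ • (E β (ρ k⁻¹ u) * star a.1)
    dsimp only at hs
    rw [Representation.self_inv_apply] at hs
    have : star a.1 * (a.1 * E β (ρ k⁻¹ u)) * star a.1 = _ := congrArg (star a.1 * · * star a.1) hs
    rw [← mul_assoc, a.2.1, one_mul] at this
    rw [this, Matrix.mul_smul, smul_mul, smul_smul, sg_sq, one_smul, mul_assoc, mul_assoc, a.2.2,
      mul_one]

theorem exists_ifc (hρ : Function.Injective ρ) (hnd : ∀ w, (∀ u, β u w + β w u = 0) → w = 0)
    (hq : ∀ k u, β (ρ k u) (ρ k u) = β u u) :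
    ∃ (π : RR β ρ →* K) (ε : ZMod 2 → U → RR β ρ), Ifc ρ β π ε := by
  refine ⟨(MonoidHom.snd _ _).comp (RR β ρ).subtype, fun s w => ⟨(⟨_, unit_E s w⟩, 1),
    (inA_E w).smul _, fun u => ⟨β w u + β u w, ?_⟩⟩, fun s w t v => ?_, fun s w t v h => ?_,
    fun a => ⟨fun h => ?_, ?_⟩, fun r s w => ?_, fun k => ?_⟩
  · change sg s • E β w * _ = _ • (E β (ρ 1 u) * sg s • E β w)
    rw [map_one, Module.End.one_apply, smul_mul, Matrix.mul_smul, smul_comm, ← E_comm]
  · refine Subtype.ext (Prod.ext (Subtype.ext ?_) (one_mul _))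
    change sg s • E β w * sg t • E β v = _ • _
    rw [smul_mul, Matrix.mul_smul, E_E, smul_smul, smul_smul, sg_add, sg_add]
  · exact E_inj β (congrArg (fun x : RR β ρ => x.1.1.1) h)
  · obtain ⟨⟨a, k⟩, h1, h2⟩ := a
    obtain rfl : k = 1 := h
    dsimp only at h1 h2
    simp only [map_one, Module.End.one_apply] at h2
    choose s hs using h2
    obtain ⟨w, hw⟩ := h1.exists_ne fun e => by
      have := a.2.1
      rw [e, mul_zero] at this
      exact zero_ne_one this
    have h3 := h1.eq_smul (w := w) fun x hx => by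
      have := hnd (x + w) fun u => by
        simp only [map_add, LinearMap.add_apply]
        rw [add_add_add_comm, h1.supp (hs u) hx, h1.supp (hs u) hw, z2_add]
      rw [← uuv w x, add_comm w x, this, add_zero]
    have h4 := a.2.1
    rw [h3, star_smul, smul_mul, Matrix.mul_smul, smul_smul, star_E_E, star_trivial (a.1 w 0)] at h4
    have h5 : a.1 w 0 * a.1 w 0 = 1 := by simpa using congrFun (congrFun h4 0) 0
    rcases mul_self_eq_one_iff.1 h5 with e | e
    · exact ⟨0, w, Subtype.ext (Prod.ext (Subtype.ext (h3.trans (by rw [e, ← sg_zero]))) rfl)⟩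
    · exact ⟨1, w, Subtype.ext (Prod.ext (Subtype.ext (h3.trans (by rw [e, ← sg_one]))) rfl)⟩
  · rintro ⟨s, w, rfl⟩
    rfl
  · obtain ⟨⟨a, k⟩, h1, h2⟩ := r
    obtain ⟨t, ht⟩ := h2 w
    refine ⟨s + t, Subtype.ext (Prod.ext (Subtype.ext ?_) (by simp))⟩
    change a.1 * sg s • E β w * star a.1 = _ • E β (ρ k w)
    dsimp only at ht
    rw [Matrix.mul_smul, ht, smul_smul, smul_mul, mul_assoc, a.2.2, mul_one, sg_add]
  · obtain ⟨g, h1, h2, h3⟩ := exists_g hnd (ρ k) (hq k)
    exact ⟨⟨(⟨g, h1, mul_eq_one_comm.1 h1⟩, k), h2, h3⟩, rfl⟩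

omit [DecidableEq U]

variable {R : Type*} [Group R] {π : R →* K} {ε : ZMod 2 → U → R}

theorem Ifc.equiv (h : Ifc ρ β π ε) {R' : Type*} [Group R'] (e : R' ≃* R) :
    Ifc ρ β (π.comp e.toMonoidHom) fun s w => e.symm (ε s w) where
  mul s w t v := by rw [← map_mul, h.mul]
  inj s w t v e' := h.inj _ _ _ _ (e.symm.injective e')
  ker a := (h.ker (e a)).trans (by simp only [MulEquiv.eq_symm_apply])
  conj r s w := by
    obtain ⟨t, ht⟩ := h.conj (e r) s w
    exact ⟨t, e.injective (by simpa using ht)⟩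
  surj := h.surj.comp e.surjective

theorem Ifc.bij (h : Ifc ρ β π ε) : Function.Bijective fun x : ZMod 2 × U =>
    (⟨ε x.1 x.2, (h.ker _).2 ⟨_, _, rfl⟩⟩ : π.ker) := by
  refine ⟨fun x y e => ?_, fun a => ?_⟩
  · obtain ⟨h1, h2⟩ := h.inj _ _ _ _ (congrArg Subtype.val e)
    exact Prod.ext h1 h2
  · obtain ⟨s, w, e⟩ := (h.ker a).1 a.2
    exact ⟨(s, w), Subtype.ext e.symm⟩

theorem Ifc.finite (h : Ifc ρ β π ε) (hρ : Function.Injective ρ) : Finite R := by
  have : Finite K := Finite.of_injective (fun k => (ρ k : U → U))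
    fun _ _ e => hρ (DFunLike.coe_injective e)
  exact π.finite_iff_finite_ker_range.2 ⟨Finite.of_surjective _ h.bij.2, inferInstance⟩

theorem Ifc.one (h : Ifc ρ β π ε) : ε 0 0 = 1 := by
  have := h.mul 0 0 0 0
  simpa using this

theorem Ifc.final [Finite R] [Nontrivial U] (h : Ifc ρ β π ε)
    (hnd : ∀ w, (∀ u, β u w + β w u = 0) → w = 0) {m : ℕ} (hm : Nat.card U = 2 ^ m) :
    ∃ χ : π.ker →* Multiplicative U, Cfsg.IsExtraspecial 2 π.ker ∧
      Nat.card π.ker = 2 ^ (m + 1) ∧ Function.Surjective χ ∧ χ.ker = Subgroup.center π.ker ∧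
      (∀ (r : R) (a : π.ker), χ ⟨r * a * r⁻¹, π.normal_ker.conj_mem (a : R) a.2 r⟩ =
        Multiplicative.ofAdd (ρ (π r) (χ a).toAdd)) ∧
      ∀ a : π.ker, a * a = 1 ↔ β (χ a).toAdd (χ a).toAdd = 0 := by
  let e := Equiv.ofBijective _ h.bij
  have he : ∀ a : π.ker, (a : R) = ε (e.symm a).1 (e.symm a).2 := fun a =>
    (congrArg Subtype.val (e.apply_symm_apply a)).symm
  have hε : ∀ (a : π.ker) s w, (a : R) = ε s w → (e.symm a).2 = w := fun a s w ha =>
    (h.inj _ _ _ _ ((he a).symm.trans ha)).2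
  let χ : π.ker →* Multiplicative U := MonoidHom.mk' (fun a => .ofAdd (e.symm a).2) fun a b =>
    hε _ _ _ (by rw [Subgroup.coe_mul, he a, he b, h.mul]; rfl)
  have hχ : ∀ a, (χ a).toAdd = (e.symm a).2 := fun _ => rfl
  have hc : Nat.card π.ker = 2 ^ (m + 1) := by
    rw [← Nat.card_congr e, Nat.card_prod, hm, Nat.card_zmod, pow_succ']
  have hs : Function.Surjective χ := fun u => ⟨e (0, u.toAdd), hε _ _ _ rfl⟩
  have hcm : ∀ a b : π.ker, a * b = b * a ↔
      β (e.symm a).2 (e.symm b).2 = β (e.symm b).2 (e.symm a).2 := fun a b => by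
    rw [Subtype.ext_iff, Subgroup.coe_mul, Subgroup.coe_mul, he a, he b, h.mul, h.mul]
    exact ⟨fun e' => add_left_cancel ((h.inj _ _ _ _ e').1.trans (by rw [add_comm (e.symm b).1])),
      fun e' => by rw [e', add_comm (e.symm b).1, add_comm (e.symm b).2]⟩
  have hk : χ.ker = Subgroup.center π.ker := by
    ext a
    rw [Subgroup.mem_center_iff, MonoidHom.mem_ker]
    change (e.symm a).2 = 0 ↔ _
    refine ⟨fun h0 b => by simp [hcm, h0], fun h0 => hnd _ fun u => ?_⟩
    have := (hcm _ _).1 (h0 (e (0, u)))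
    rw [e.symm_apply_apply] at this
    rw [this, z2_add]
  refine ⟨χ, ?_, hc, hs, hk, fun r a => ?_, fun a => ?_⟩
  · refine H9.isExtraspecial_of_card_center (IsPGroup.of_card hc) (fun hc => ?_) ?_ ?_
    · obtain ⟨w, hw⟩ := exists_ne (0 : U)
      have : e (0, w) ∈ χ.ker := by
        rw [hk, Subgroup.mem_center_iff]
        exact fun b => hc.is_comm.comm _ _
      exact hw ((hε _ _ _ rfl).symm.trans this)
    · rw [← hk]
      exact Abelianization.commutator_subset_ker χ
    · have := χ.ker.card_mul_index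
      rw [Subgroup.index_ker, MonoidHom.range_eq_top.2 hs, Subgroup.card_top, hc, hk,
        Nat.card_congr Multiplicative.toAdd, hm, pow_succ'] at this
      exact (Nat.eq_of_mul_eq_mul_right (by positivity) this).le
  · obtain ⟨t, ht⟩ := h.conj r (e.symm a).1 (e.symm a).2
    exact hε _ _ _ (by rw [← he a] at ht; exact ht)
  · rw [Subtype.ext_iff, Subgroup.coe_mul, he a, h.mul, z2_add, zero_add, uu, hχ,
      Subgroup.coe_one, ← h.one]
    exact ⟨fun e' => (h.inj _ _ _ _ e').1, fun e' => by rw [e']⟩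

end H92.XE
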